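import Mathlib
import Cfsg.Agent.Lib.SzIso.Fix2
import Cfsg.Agent.Lib.Schur.Stem

/-!
The stem extensions of the Suzuki groups `Sz(q)`, `q ≥ 32`, are trivial.
-/

set_option autoImplicit false
set_option linter.unusedSimpArgs false
set_option linter.unusedSectionVars false
set_option linter.style.haveILetI false

namespace Cfsg.Agent.Lib.SzIso.SchurSz

open Cfsg Cfsg.Agent.Lib.Suzuki.Core Cfsg.Agent.Lib.Suzuki.Elements
  Cfsg.Agent.Lib.Suzuki.Stab Cfsg.Agent.Lib.Suzuki.Group Cfsg.Agent.Lib.Suzuki.Simple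
  Cfsg.Agent.Lib.Suzuki.Sylow2 Cfsg.Agent.Lib.Suzuki.Count Cfsg.Agent.Lib.SzIso.OutSz
  Cfsg.Agent.Lib.SzIso.SubSz Cfsg.Agent.Lib.Suzuki.Cyc Cfsg.Agent.Lib.Suzuki.CN
  Cfsg.Agent.Lib.SuzukiX.Partition Cfsg.Agent.Lib.SuzukiX.Central Cfsg.Agent.Lib.SzIso.MaxSz
  Cfsg.Agent.Lib.SzIso.SolSz
open scoped commutatorElement

section Hua

variable {F : Type*} [Field F] [Fintype F] [CharP F 2]

/-- Scale-invariant biadditive forms on a field with at least eight elements vanish. -/
theorem form_eq_one {A : Type*} [CommGroup A] (hq : 8 ≤ Fintype.card F) (E : F → F → A)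
    (hl : ∀ a a' b, E (a + a') b = E a b * E a' b)
    (hr : ∀ a b b', E a (b + b') = E a b * E a b')
    (hs : ∀ l : F, l ≠ 0 → ∀ a b, E (l * a) (l * b) = E a b) :
    ∀ a b, E a b = 1 := by
  classical
  have hadd2 : ∀ x : F, x + x = 0 := CharTwo.add_self_eq_zero
  set g : F → A := fun w => E 1 w with hg
  set ψ : F → A := fun y => E y 1 with hψ
  have hgadd : ∀ x y, g (x + y) = g x * g y := fun x y => hr 1 x y
  have hψadd : ∀ x y, ψ (x + y) = ψ x * ψ y := fun x y => hl x y 1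
  have hg0 : g 0 = 1 := by
    have h := hgadd 0 0
    rw [add_zero] at h
    exact (mul_eq_left.1 h.symm)
  have hgsq : ∀ x, g x * g x = 1 := by
    intro x
    rw [← hgadd, hadd2, hg0]
  have hψg : ∀ y : F, y ≠ 0 → ψ y = g y⁻¹ := by
    intro y hy
    have h := hs y hy 1 y⁻¹
    rw [mul_one, mul_inv_cancel₀ hy] at h
    exact h
  -- Hua's identity
  have hua : ∀ a b : F, a ≠ 0 → b ≠ 0 → a * b ≠ 1 → g (a * a * b) = g a * ψ b := by
    intro a b ha hb hab
    have hab' : 1 + a * b ≠ 0 := by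
      intro h
      apply hab
      have h2 := CharTwo.add_eq_zero.1 h
      exact h2.symm
    have h1 : b⁻¹ + a ≠ 0 := by
      intro h
      apply hab'
      have : b * (b⁻¹ + a) = 1 + a * b := by
        rw [mul_add, mul_inv_cancel₀ hb, mul_comm b a]
      rw [← this, h, mul_zero]
    set D := a⁻¹ + (b⁻¹ + a)⁻¹ with hD
    have hDe : D = (a * (1 + a * b))⁻¹ := by
      rw [hD]
      field_simp
      have h2 : (2 : F) = 0 := CharTwo.two_eq_zero
      linear_combination (a * b) * h2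
    have hD0 : D ≠ 0 := by
      rw [hDe]
      exact inv_ne_zero (mul_ne_zero ha hab')
    have e1 : ψ D = g (a * a * b) * g a := by
      rw [hψg D hD0, hDe, inv_inv, ← hgadd]
      congr 1
      ring
    have e2 : ψ D = g a * (ψ b * g a) := by
      rw [hD, hψadd, hψg _ (inv_ne_zero ha), inv_inv, hψg _ (inv_ne_zero h1), inv_inv, hgadd,
        hψg b hb]
    have e3 : g (a * a * b) * g a = (g a * ψ b) * g a := by
      rw [← e1, e2, mul_assoc]
    exact mul_right_cancel e3
  have hone : ∀ b : F, b ≠ 0 → b ≠ 1 → ψ b = g b * g 1 := by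
    intro b hb hb1
    have h := hua 1 b one_ne_zero hb (by rwa [one_mul])
    rw [one_mul, one_mul] at h
    rw [h, mul_comm (g 1) (ψ b), mul_assoc, hgsq, mul_one]
  have hua2 : ∀ a b : F, a ≠ 0 → b ≠ 0 → b ≠ 1 → a * b ≠ 1 → g (a * a * b) = g a * (g b * g 1) := by
    intro a b ha hb hb1 hab
    rw [hua a b ha hb hab, hone b hb hb1]
  -- constant on nonzero elements
  have hconst : ∀ a : F, a ≠ 0 → g a = g 1 := by
    intro a ha
    obtain ⟨b, hb⟩ : ∃ b : F, b ∉ ({0, 1, a⁻¹} : Finset F) := by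
      by_contra hcon
      push Not at hcon
      have h1 : (Finset.univ : Finset F) ⊆ {0, 1, a⁻¹} := fun x _ => hcon x
      have h2 := Finset.card_le_card h1
      have h3 : ({0, 1, a⁻¹} : Finset F).card ≤ 3 := Finset.card_le_three
      rw [Finset.card_univ] at h2
      omega
    simp only [Finset.mem_insert, Finset.mem_singleton, not_or] at hb
    obtain ⟨hb0, hb1, hba⟩ := hb
    obtain ⟨b', hb'⟩ : ∃ b' : F, b' ∉ ({0, 1, a⁻¹, b, b + 1, b + a⁻¹} : Finset F) := by
      by_contra hcon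
      push Not at hcon
      have h1 : (Finset.univ : Finset F) ⊆ {0, 1, a⁻¹, b, b + 1, b + a⁻¹} := fun x _ => hcon x
      have h2 := Finset.card_le_card h1
      have h3 : ({0, 1, a⁻¹, b, b + 1, b + a⁻¹} : Finset F).card ≤ 6 := Finset.card_le_six
      rw [Finset.card_univ] at h2
      omega
    simp only [Finset.mem_insert, Finset.mem_singleton, not_or] at hb'
    obtain ⟨hb'0, hb'1, hb'a, hb'b, hb'b1, hb'ba⟩ := hb'
    have hne : ∀ x : F, x ≠ a⁻¹ → a * x ≠ 1 := by
      intro x hx h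
      apply hx
      field_simp
      rw [mul_comm]
      exact h
    have hs0 : b + b' ≠ 0 := by
      intro h
      exact hb'b (CharTwo.add_eq_zero.1 h).symm
    have hs1 : b + b' ≠ 1 := by
      intro h
      apply hb'b1
      have : b' = (b + b') + b := by
        rw [add_comm b b', add_assoc, hadd2, add_zero]
      rw [this, h, add_comm]
    have hsa : b + b' ≠ a⁻¹ := by
      intro h
      apply hb'ba
      have : b' = (b + b') + b := by
        rw [add_comm b b', add_assoc, hadd2, add_zero]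
      rw [this, h, add_comm]
    have e1 := hua2 a (b + b') ha hs0 hs1 (hne _ hsa)
    have e2 : a * a * (b + b') = a * a * b + a * a * b' := by ring
    rw [e2, hgadd, hua2 a b ha hb0 hb1 (hne _ hba), hua2 a b' ha hb'0 hb'1 (hne _ hb'a), hgadd] at e1
    -- now group computation
    have e3 : (g a * (g b * g 1)) * (g a * (g b' * g 1)) = g b * g b' := by
      calc (g a * (g b * g 1)) * (g a * (g b' * g 1))
          = (g a * g a) * (g 1 * g 1) * (g b * g b') := by
            simp only [mul_assoc, mul_comm, mul_left_comm]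
        _ = g b * g b' := by rw [hgsq, hgsq, one_mul, one_mul]
    rw [e3] at e1
    have e4 : g a * (g b * g b' * g 1) = (g a * g 1) * (g b * g b') := by
      simp only [mul_assoc, mul_comm, mul_left_comm]
    rw [e4] at e1
    have e5 : g a * g 1 = 1 := by
      have : (g a * g 1) * (g b * g b') = 1 * (g b * g b') := by rw [one_mul]; exact e1.symm
      exact mul_right_cancel this
    calc g a = g a * (g 1 * g 1) := by rw [hgsq, mul_one]
      _ = (g a * g 1) * g 1 := by rw [mul_assoc]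
      _ = g 1 := by rw [e5, one_mul]
  have hg1 : g 1 = 1 := by
    obtain ⟨x, hx⟩ : ∃ x : F, x ∉ ({0, 1} : Finset F) := by
      by_contra hcon
      push Not at hcon
      have h1 : (Finset.univ : Finset F) ⊆ {0, 1} := fun x _ => hcon x
      have h2 := Finset.card_le_card h1
      have h3 : ({0, 1} : Finset F).card ≤ 2 := Finset.card_le_two
      rw [Finset.card_univ] at h2
      omega
    simp only [Finset.mem_insert, Finset.mem_singleton, not_or] at hx
    have hx1 : x + 1 ≠ 0 := by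
      intro h
      exact hx.2 (CharTwo.add_eq_zero.1 h)
    have h := hgadd x 1
    rw [hconst _ hx1, hconst _ hx.1] at h
    exact (mul_eq_left.1 h.symm)
  have hgall : ∀ x, g x = 1 := by
    intro x
    by_cases hx : x = 0
    · rw [hx, hg0]
    · rw [hconst x hx, hg1]
  intro a b
  by_cases ha : a = 0
  · have h := hl 0 0 b
    rw [add_zero] at h
    rw [ha]
    exact (mul_eq_left.1 h.symm)
  · have h := hs a ha 1 (a⁻¹ * b)
    rw [mul_one, ← mul_assoc, mul_inv_cancel₀ ha, one_mul] at h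
    rw [h]
    exact hgall _

/-- Averaging a biadditive form over the multiplicative group of the field gives the trivial form. -/
theorem norm_form_eq_one [DecidableEq F] {A : Type*} [CommGroup A] (hq : 8 ≤ Fintype.card F) (K : F → F → A)
    (hl : ∀ a a' b, K (a + a') b = K a b * K a' b)
    (hr : ∀ a b b', K a (b + b') = K a b * K a b') (a b : F) :
    ∏ l : Fˣ, K ((l : F) * a) ((l : F) * b) = 1 := by
  refine form_eq_one hq (fun a b => ∏ l : Fˣ, K ((l : F) * a) ((l : F) * b)) ?_ ?_ ?_ a b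
  · intro x y z
    simp only [mul_add, hl, Finset.prod_mul_distrib]
  · intro x y z
    simp only [mul_add, hr, Finset.prod_mul_distrib]
  · intro s hs x y
    refine Fintype.prod_equiv (Equiv.mulRight (Units.mk0 s hs)) _ _ ?_
    intro l
    simp only [Equiv.coe_mulRight, Units.val_mul, Units.val_mk0, mul_assoc]

end Hua

section Witness

variable {F : Type*} [Field F] [Fintype F] [CharP F 2]

open Polynomial in
/-- `a ↦ (a θ(a))⁻¹` is not additive when `q ≥ 32`. -/
theorem exists_not_add {m : ℕ} (hm : 2 ≤ m) (hF : Fintype.card F = 2 ^ (2 * m + 1)) :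
    ∃ v : F, v ≠ 0 ∧ v ≠ 1 ∧ ((1 + v) * th m (1 + v))⁻¹ ≠ 1 + (v * th m v)⁻¹ := by
  classical
  by_contra hcon
  push Not at hcon
  set θ := 2 ^ (m + 1) with hθ
  set P : F[X] := X ^ (2 * θ + 2) + X ^ (θ + 1) + 1 + X ^ (θ + 2) + X ^ (2 * θ + 1) + X + X ^ θ with hP
  have hroot : ∀ v : F, v ≠ 0 → v ≠ 1 → P.eval v = 0 := by
    intro v hv0 hv1
    have h := hcon v hv0 hv1
    set t := th m v with ht
    have htv : t = v ^ θ := rfl
    have ht1 : th m (1 + v) = 1 + t := by rw [th_add, th_one]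
    rw [ht1] at h
    have hv1' : 1 + v ≠ 0 := fun h' => hv1 (CharTwo.add_eq_zero.1 h').symm
    have ht0 : t ≠ 0 := th_ne_zero m hv0
    have ht1' : 1 + t ≠ 0 := by
      rw [← ht1]
      exact th_ne_zero m hv1'
    have h2 : (2 : F) = 0 := CharTwo.two_eq_zero
    have e : v * t = (1 + v) * (1 + t) * (v * t + 1) := by
      field_simp at h
      linear_combination h
    have e2 : P.eval v = (v * t) ^ 2 + v * t + 1 + v * (v * t) + t * (v * t) + v + t := by
      simp only [hP, eval_add, eval_pow, eval_X, eval_one]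
      rw [htv]
      ring
    rw [e2]
    linear_combination (-1 : F) * e
  have hP0 : P ≠ 0 := by
    intro h
    have hθ0 : θ ≠ 0 := by positivity
    have h1 : P.eval 0 = 1 := by
      simp [hP, hθ0]
    rw [h] at h1
    simp at h1
  have hdeg : P.natDegree ≤ 2 * θ + 2 := by
    rw [hP]
    compute_degree
    all_goals omega
  set Z : Finset F := (Finset.univ : Finset F).erase 0 |>.erase 1 with hZ
  have hZr : Z.val ⊆ P.roots := by
    intro v hv
    have hv' : v ∈ Z := hv
    rw [hZ, Finset.mem_erase, Finset.mem_erase] at hv'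
    rw [Polynomial.mem_roots hP0]
    exact hroot v hv'.2.1 hv'.1
  have hcard := Polynomial.card_le_degree_of_subset_roots hZr
  have hZc : Z.card + 2 = Fintype.card F := by
    rw [hZ, Finset.card_erase_of_mem (by simp), Finset.card_erase_of_mem (by simp), Finset.card_univ]
    have : 2 ≤ Fintype.card F := Fintype.one_lt_card
    omega
  have hs4 : 4 ≤ 2 ^ m := by
    calc 4 = 2 ^ 2 := by norm_num
      _ ≤ 2 ^ m := Nat.pow_le_pow_right (by norm_num) hm
  have e1 : 2 ^ (2 * m + 1) = 2 * (2 ^ m * 2 ^ m) := by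
    rw [pow_succ, two_mul, pow_add]; ring
  have e2 : θ = 2 * 2 ^ m := by
    rw [hθ, pow_succ]; ring
  rw [hF, e1] at hZc
  have := hcard.trans hdeg
  rw [e2] at this
  nlinarith

end Witness

section CF

variable {Γ : Type*} [Group Γ] {G : Type*} [Group G]

lemma comm_mul_left {x y c : Γ} (h : Commute c y) : ⁅x * c, y⁆ = ⁅x, y⁆ := by
  rw [commutatorElement_def, commutatorElement_def, mul_inv_rev]
  have h' : c * y = y * c := h
  calc x * c * y * (c⁻¹ * x⁻¹) * y⁻¹ = x * (c * y) * c⁻¹ * x⁻¹ * y⁻¹ := by group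
    _ = x * (y * c) * c⁻¹ * x⁻¹ * y⁻¹ := by rw [h']
    _ = x * y * x⁻¹ * y⁻¹ := by group

lemma comm_mul_right {x y c : Γ} (h : Commute c x) : ⁅x, y * c⁆ = ⁅x, y⁆ := by
  rw [commutatorElement_def, commutatorElement_def, mul_inv_rev]
  have h' : c * x⁻¹ = x⁻¹ * c := (h.inv_right).eq
  calc x * (y * c) * x⁻¹ * (c⁻¹ * y⁻¹) = x * y * (c * x⁻¹) * c⁻¹ * y⁻¹ := by group
    _ = x * y * (x⁻¹ * c) * c⁻¹ * y⁻¹ := by rw [h']
    _ = x * y * x⁻¹ * y⁻¹ := by group

/-- Class-two expansion of the commutator on the left. -/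
lemma comm_mul_mul {x x' y : Γ} (h : Commute ⁅x', y⁆ x) : ⁅x * x', y⁆ = ⁅x', y⁆ * ⁅x, y⁆ := by
  have e : x' * y * x'⁻¹ = ⁅x', y⁆ * y := by
    rw [commutatorElement_def]; group
  calc ⁅x * x', y⁆ = x * (x' * y * x'⁻¹) * x⁻¹ * y⁻¹ := by
        rw [commutatorElement_def]; group
    _ = x * ⁅x', y⁆ * y * x⁻¹ * y⁻¹ := by rw [e]; group
    _ = ⁅x', y⁆ * x * y * x⁻¹ * y⁻¹ := by rw [h.symm.eq]
    _ = ⁅x', y⁆ * ⁅x, y⁆ := by rw [commutatorElement_def x y]; group

/-- Class-two expansion of the commutator on the right. -/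
lemma comm_mul_mul' {x y y' : Γ} (h : Commute ⁅x, y'⁆ y) : ⁅x, y * y'⁆ = ⁅x, y⁆ * ⁅x, y'⁆ := by
  have e : x * y' * x⁻¹ = ⁅x, y'⁆ * y' := by
    rw [commutatorElement_def]; group
  calc ⁅x, y * y'⁆ = x * y * x⁻¹ * (x * y' * x⁻¹) * y'⁻¹ * y⁻¹ := by
        rw [commutatorElement_def]; group
    _ = x * y * x⁻¹ * (⁅x, y'⁆ * y') * y'⁻¹ * y⁻¹ := by rw [e]
    _ = x * y * x⁻¹ * ⁅x, y'⁆ * y⁻¹ := by group
    _ = x * y * x⁻¹ * (⁅x, y'⁆ * y⁻¹) := by group
    _ = x * y * x⁻¹ * (y⁻¹ * ⁅x, y'⁆) := by rw [(h.inv_right).eq]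
    _ = ⁅x, y⁆ * ⁅x, y'⁆ := by rw [commutatorElement_def x y]; group

lemma conj_comm (t x y : Γ) : t * ⁅x, y⁆ * t⁻¹ = ⁅t * x * t⁻¹, t * y * t⁻¹⁆ := by
  rw [commutatorElement_def, commutatorElement_def]; group

variable (σ : Γ →* G) (hσ : Function.Surjective σ) (hC : σ.ker ≤ Subgroup.center Γ)

include hC in
lemma comm_eq_of_map {x x' y y' : Γ} (hx : σ x = σ x') (hy : σ y = σ y') : ⁅x, y⁆ = ⁅x', y'⁆ := by
  have h1 : x⁻¹ * x' ∈ σ.ker := by
    rw [MonoidHom.mem_ker, map_mul, map_inv, hx, inv_mul_cancel]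
  have h2 : y⁻¹ * y' ∈ σ.ker := by
    rw [MonoidHom.mem_ker, map_mul, map_inv, hy, inv_mul_cancel]
  have h1' := Subgroup.mem_center_iff.1 (hC h1)
  have h2' := Subgroup.mem_center_iff.1 (hC h2)
  have e1 : x' = x * (x⁻¹ * x') := by group
  have e2 : y' = y * (y⁻¹ * y') := by group
  rw [e1, e2, comm_mul_left (Commute.symm (h1' _)), comm_mul_right (Commute.symm (h2' _))]

/-- The commutator form. -/
noncomputable def cf (u v : G) : Γ := ⁅Function.surjInv hσ u, Function.surjInv hσ v⁆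

lemma map_surjInv (u : G) : σ (Function.surjInv hσ u) = u := Function.surjInv_eq hσ u

include hC in
lemma cf_eq {x y : Γ} {u v : G} (hx : σ x = u) (hy : σ y = v) : ⁅x, y⁆ = cf σ hσ u v :=
  comm_eq_of_map σ hC (by rw [hx, map_surjInv]) (by rw [hy, map_surjInv])

lemma cf_mem_ker {u v : G} (h : Commute u v) : cf σ hσ u v ∈ σ.ker := by
  rw [MonoidHom.mem_ker, cf, map_commutatorElement, map_surjInv, map_surjInv]
  exact commutatorElement_eq_one_iff_commute.2 h

include hC in
lemma cf_central {u v : G} (h : Commute u v) (g : Γ) : g * cf σ hσ u v = cf σ hσ u v * g :=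
  (Subgroup.mem_center_iff.1 (hC (cf_mem_ker σ hσ h))) g

include hC in
lemma cf_mul_left' {u u' v : G} (h : Commute u v) (h' : Commute u' v) :
    cf σ hσ (u * u') v = cf σ hσ u v * cf σ hσ u' v := by
  have h1 := cf_eq σ hσ hC (x := Function.surjInv hσ u * Function.surjInv hσ u')
    (y := Function.surjInv hσ v) (u := u * u') (v := v) (by rw [map_mul, map_surjInv, map_surjInv])
    (map_surjInv σ hσ v)
  rw [← h1, comm_mul_mul ((Subgroup.mem_center_iff.1 (hC (cf_mem_ker σ hσ h'))) _).symm]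
  show cf σ hσ u' v * cf σ hσ u v = _
  exact (cf_central σ hσ hC h' _).symm

include hC in
lemma cf_mul_right' {u v v' : G} (h : Commute u v) (h' : Commute u v') :
    cf σ hσ u (v * v') = cf σ hσ u v * cf σ hσ u v' := by
  have h1 := cf_eq σ hσ hC (x := Function.surjInv hσ u) 
    (y := Function.surjInv hσ v * Function.surjInv hσ v') (u := u) (v := v * v') (map_surjInv σ hσ u)
    (by rw [map_mul, map_surjInv, map_surjInv])
  rw [← h1, comm_mul_mul' ((Subgroup.mem_center_iff.1 (hC (cf_mem_ker σ hσ h'))) _).symm]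
  rfl

include hC in
lemma cf_one_left (v : G) : cf σ hσ 1 v = 1 := by
  have h1 := cf_eq σ hσ hC (x := 1) (y := Function.surjInv hσ v) (u := 1) (v := v) (map_one σ)
    (map_surjInv σ hσ v)
  rw [← h1, commutatorElement_one_left]

include hC in
lemma cf_conj (w : G) {u v : G} (h : Commute u v) :
    cf σ hσ (w * u * w⁻¹) (w * v * w⁻¹) = cf σ hσ u v := by
  have h1 := cf_eq σ hσ hC
    (x := Function.surjInv hσ w * Function.surjInv hσ u * (Function.surjInv hσ w)⁻¹)
    (y := Function.surjInv hσ w * Function.surjInv hσ v * (Function.surjInv hσ w)⁻¹)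
    (u := w * u * w⁻¹) (v := w * v * w⁻¹)
    (by rw [map_mul, map_mul, map_inv, map_surjInv, map_surjInv])
    (by rw [map_mul, map_mul, map_inv, map_surjInv, map_surjInv])
  rw [← h1, ← conj_comm]
  have h2 := cf_central σ hσ hC h (Function.surjInv hσ w)
  show Function.surjInv hσ w * cf σ hσ u v * (Function.surjInv hσ w)⁻¹ = _
  rw [h2, mul_assoc, mul_inv_cancel, mul_one]

end CF

section Main

variable {F : Type*} [Field F] [Fintype F] [CharP F 2] {m : ℕ} (hc : Ctx F m)
variable {Γ : Type*} [Group Γ] (σ : Γ →* Sz F m) (hσ : Function.Surjective σ)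
  (hC : σ.ker ≤ Subgroup.center Γ)

lemma commute_zero (b a a' : F) : Commute (uS hc 0 b) (uS hc a a') := by
  show _ * _ = _ * _
  rw [uS_mul, uS_mul, th_zero, zero_mul, mul_zero]
  simp only [add_zero, zero_add, add_comm]

include hC in
lemma cf_zero_zero (b b' : F) : cf σ hσ (uS hc 0 b) (uS hc 0 b') = 1 := by
  obtain ⟨a, rfl⟩ := exists_th_mul_self hc b'
  rw [← uS_sq hc a 0, cf_mul_right' σ hσ hC (commute_zero hc _ _ _) (commute_zero hc _ _ _),
    ← cf_mul_left' σ hσ hC (commute_zero hc _ _ _) (commute_zero hc _ _ _), uS_zero_sq,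
    cf_one_left σ hσ hC]

include hC in
lemma B_add_left (b b' a : F) :
    cf σ hσ (uS hc 0 (b + b')) (uS hc a 0) = cf σ hσ (uS hc 0 b) (uS hc a 0) * cf σ hσ (uS hc 0 b') (uS hc a 0) := by
  rw [← uS_zero_mul, cf_mul_left' σ hσ hC (commute_zero hc _ _ _) (commute_zero hc _ _ _)]

include hC in
lemma B_add_right (b a a' : F) :
    cf σ hσ (uS hc 0 b) (uS hc (a + a') 0) = cf σ hσ (uS hc 0 b) (uS hc a 0) * cf σ hσ (uS hc 0 b) (uS hc a' 0) := by
  rw [← cf_mul_right' σ hσ hC (commute_zero hc _ _ _) (commute_zero hc _ _ _), uS_mul, uS_split hc (a + a') (0 + 0 + th m a * a'),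
    cf_mul_right' σ hσ hC (commute_zero hc _ _ _) (commute_zero hc _ _ _), cf_zero_zero hc σ hσ hC, mul_one]

include hC in
lemma B_inv (l : Fˣ) (b a : F) :
    cf σ hσ (uS hc 0 ((l : F) * th m (l : F) * b)) (uS hc ((l : F) * a) 0) = cf σ hσ (uS hc 0 b) (uS hc a 0) := by
  have h1 := hS_conj_uS hc l 0 b
  have h2 := hS_conj_uS hc l a 0
  rw [mul_zero] at h1 h2
  rw [← h1, ← h2]
  exact cf_conj σ hσ hC _ (commute_zero hc _ _ _)

include hC in
theorem B_eq_one (hm : 2 ≤ m) (b a : F) : cf σ hσ (uS hc 0 b) (uS hc a 0) = 1 := by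
  have hadd2 : ∀ x : F, x + x = 0 := CharTwo.add_self_eq_zero
  set k : F → Γ := fun x => cf σ hσ (uS hc 0 x) (uS hc 1 0) with hk
  have hkadd : ∀ x y, k (x + y) = k x * k y := fun x y => B_add_left hc σ hσ hC x y 1
  have hk0 : k 0 = 1 := by
    have h := hkadd 0 0
    rw [add_zero] at h
    exact (mul_eq_left.1 h.symm)
  have hB : ∀ (x a : F), a ≠ 0 → cf σ hσ (uS hc 0 x) (uS hc a 0) = k (x * (a * th m a)⁻¹) := by
    intro x a ha
    have h := B_inv hc σ hσ hC (Units.mk0 a ha) (x * (a * th m a)⁻¹) 1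
    rw [Units.val_mk0, mul_one] at h
    have ha' : a * th m a ≠ 0 := mul_ne_zero ha (th_ne_zero m ha)
    have hth := th_ne_zero m ha
    have e : a * th m a * (x * (a * th m a)⁻¹) = x := by
      field_simp
    rw [e] at h
    exact h
  obtain ⟨v, hv0, hv1, hv⟩ := exists_not_add (F := F) hm hc.hcard
  set d := ((1 + v) * th m (1 + v))⁻¹ + (1 + (v * th m v)⁻¹) with hd
  have hd0 : d ≠ 0 := by
    intro h
    exact hv (CharTwo.add_eq_zero.1 h)
  have hv1' : (1 : F) + v ≠ 0 := fun h => hv1 (CharTwo.add_eq_zero.1 h).symm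
  have hkd : ∀ x, k (x * d) = 1 := by
    intro x
    have h := B_add_right hc σ hσ hC x 1 v
    rw [hB x _ hv1', hB x 1 one_ne_zero, hB x v hv0, th_one, mul_one, inv_one, mul_one] at h
    have e : x * d = x * ((1 + v) * th m (1 + v))⁻¹ + (x + x * (v * th m v)⁻¹) := by
      rw [hd]; ring
    rw [e, hkadd, h, ← hkadd x, ← hkadd, hadd2, hk0]
  have hkall : ∀ x, k x = 1 := by
    intro x
    have h := hkd (x * d⁻¹)
    rwa [mul_assoc, inv_mul_cancel₀ hd0, mul_one] at h
  by_cases ha : a = 0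
  · rw [ha]
    exact cf_zero_zero hc σ hσ hC b 0
  · rw [hB b a ha]
    exact hkall _

include hC in
lemma cf_zero_any (hm : 2 ≤ m) (b a a' : F) : cf σ hσ (uS hc 0 b) (uS hc a a') = 1 := by
  rw [uS_split hc a a', cf_mul_right' σ hσ hC (commute_zero hc _ _ _) (commute_zero hc _ _ _),
    B_eq_one hc σ hσ hC hm, cf_zero_zero hc σ hσ hC, one_mul]

include hσ hC in
lemma commute_lift (hm : 2 ≤ m) {x y : Γ} {b a a' : F} (hx : σ x = uS hc 0 b) (hy : σ y = uS hc a a') :
    Commute x y := by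
  rw [← commutatorElement_eq_one_iff_commute, cf_eq σ hσ hC hx hy, cf_zero_any hc σ hσ hC hm]

/-- Commutators of lifts. -/
noncomputable def KK (a b : F) : Γ :=
  ⁅Function.surjInv hσ (uS hc a 0), Function.surjInv hσ (uS hc b 0)⁆

lemma KK_map (a b : F) : σ (KK hc σ hσ a b) = uS hc 0 (th m a * b + th m b * a) := by
  rw [KK, map_commutatorElement, map_surjInv, map_surjInv, uS_comm_formula]

include hC in
lemma comm_eq_KK (hm : 2 ≤ m) {x y : Γ} {a b a' b' : F} (hx : σ x = uS hc a b) (hy : σ y = uS hc a' b') :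
    ⁅x, y⁆ = KK hc σ hσ a a' := by
  set u := Function.surjInv hσ (uS hc a 0) with hu
  set u' := Function.surjInv hσ (uS hc a' 0) with hu'
  have hmu : σ u = uS hc a 0 := map_surjInv σ hσ _
  have hmu' : σ u' = uS hc a' 0 := map_surjInv σ hσ _
  have hw : σ (u⁻¹ * x) = uS hc 0 b := by
    rw [map_mul, map_inv, hmu, hx, uS_split hc a b, inv_mul_cancel_left]
  have hw' : σ (u'⁻¹ * y) = uS hc 0 b' := by
    rw [map_mul, map_inv, hmu', hy, uS_split hc a' b', inv_mul_cancel_left]
  have e1 : x = u * (u⁻¹ * x) := by group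
  have e2 : y = u' * (u'⁻¹ * y) := by group
  have h1 : ⁅x, y⁆ = ⁅u, y⁆ := by
    conv_lhs => rw [e1]
    exact comm_mul_left (commute_lift hc σ hσ hC hm hw hy)
  rw [h1]
  have h2 : ⁅u, y⁆ = ⁅u, u'⁆ := by
    conv_lhs => rw [e2]
    exact comm_mul_right (commute_lift hc σ hσ hC hm hw' hmu)
  rw [h2]
  rfl

include hC in
lemma commute_KK (hm : 2 ≤ m) (a b : F) {y : Γ} {a' b' : F} (hy : σ y = uS hc a' b') :
    Commute (KK hc σ hσ a b) y :=
  commute_lift hc σ hσ hC hm (KK_map hc σ hσ a b) hy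

include hC in
lemma KK_add_left (hm : 2 ≤ m) (a a' b : F) :
    KK hc σ hσ (a + a') b = KK hc σ hσ a b * KK hc σ hσ a' b := by
  set u := Function.surjInv hσ (uS hc a 0) with hu
  set u' := Function.surjInv hσ (uS hc a' 0) with hu'
  set v := Function.surjInv hσ (uS hc b 0) with hv
  have hmu : σ u = uS hc a 0 := map_surjInv σ hσ _
  have hmu' : σ u' = uS hc a' 0 := map_surjInv σ hσ _
  have hmv : σ v = uS hc b 0 := map_surjInv σ hσ _
  have h1 : ⁅u * u', v⁆ = KK hc σ hσ (a + a') b := by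
    refine comm_eq_KK hc σ hσ hC hm (b := 0 + 0 + th m a * a') ?_ hmv
    rw [map_mul, hmu, hmu', uS_mul]
  rw [← h1]
  have h2 : ⁅u', v⁆ = KK hc σ hσ a' b := rfl
  have h3 : ⁅u, v⁆ = KK hc σ hσ a b := rfl
  rw [comm_mul_mul, h2, h3]
  · exact (commute_KK hc σ hσ hC hm a b (KK_map hc σ hσ a' b)).symm.eq
  · rw [h2]
    exact commute_KK hc σ hσ hC hm a' b hmu

include hC in
lemma KK_add_right (hm : 2 ≤ m) (a b b' : F) :
    KK hc σ hσ a (b + b') = KK hc σ hσ a b * KK hc σ hσ a b' := by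
  set u := Function.surjInv hσ (uS hc a 0) with hu
  set v := Function.surjInv hσ (uS hc b 0) with hv
  set v' := Function.surjInv hσ (uS hc b' 0) with hv'
  have hmu : σ u = uS hc a 0 := map_surjInv σ hσ _
  have hmv : σ v = uS hc b 0 := map_surjInv σ hσ _
  have hmv' : σ v' = uS hc b' 0 := map_surjInv σ hσ _
  have h1 : ⁅u, v * v'⁆ = KK hc σ hσ a (b + b') := by
    refine comm_eq_KK hc σ hσ hC hm (b' := 0 + 0 + th m b * b') hmu ?_
    rw [map_mul, hmv, hmv', uS_mul]
  rw [← h1]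
  have h2 : ⁅u, v'⁆ = KK hc σ hσ a b' := rfl
  rw [comm_mul_mul']
  · rw [h2]
    rfl
  · rw [h2]
    exact commute_KK hc σ hσ hC hm a b' hmv

include hC in
lemma KK_conj (hm : 2 ≤ m) (l : Fˣ) (a b : F) :
    Function.surjInv hσ (hS hc l) * KK hc σ hσ a b * (Function.surjInv hσ (hS hc l))⁻¹ =
      KK hc σ hσ ((l : F) * a) ((l : F) * b) := by
  rw [KK, conj_comm]
  refine comm_eq_KK hc σ hσ hC hm (b := (l : F) * th m (l : F) * 0) (b' := (l : F) * th m (l : F) * 0) ?_ ?_
  · rw [map_mul, map_mul, map_inv, map_surjInv, map_surjInv, hS_conj_uS]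
  · rw [map_mul, map_mul, map_inv, map_surjInv, map_surjInv, hS_conj_uS]

include hσ hC in
/-- Elements of the kernel lying in the commutator subgroup of `Γ` have odd order. -/
theorem pow_eq_one_of_mem_ker [Finite Γ] (hm : 2 ≤ m) {c : Γ} (hck : c ∈ σ.ker) (hcc : c ∈ commutator Γ) :
    (c ^ ((Usub hc).comap σ).index) ^ Nat.card Fˣ = 1 := by
  classical
  rw [Nat.card_eq_fintype_card]
  have hq : 8 ≤ Fintype.card F := by
    rw [hc.hcard]
    calc 8 = 2 ^ 3 := by norm_num
      _ ≤ 2 ^ (2 * m + 1) := Nat.pow_le_pow_right (by norm_num) (by omega)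
  set Zt : Subgroup Γ := (EA hc ⊤).comap σ with hZt
  have hZmem : ∀ {x : Γ}, x ∈ Zt ↔ ∃ b : F, σ x = uS hc 0 b := by
    intro x
    constructor
    · rintro ⟨b, -, h⟩
      exact ⟨b, h⟩
    · rintro ⟨b, h⟩
      exact ⟨b, AddSubgroup.mem_top b, h⟩
  have hZcomm : ∀ x y : Zt, x * y = y * x := by
    intro x y
    obtain ⟨b, hb⟩ := hZmem.1 x.2
    obtain ⟨b', hb'⟩ := hZmem.1 y.2
    apply Subtype.ext
    exact commute_lift hc σ hσ hC hm hb hb'
  letI iZ : CommGroup Zt := { (inferInstance : Group Zt) with mul_comm := hZcomm }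
  let t : Fˣ → Γ := fun l => Function.surjInv hσ (hS hc l)
  have ht : ∀ l, σ (t l) = hS hc l := fun l => map_surjInv σ hσ _
  have hconjZ : ∀ (l : Fˣ) (x : Γ), x ∈ Zt → t l * x * (t l)⁻¹ ∈ Zt := by
    intro l x hx
    obtain ⟨b, hb⟩ := hZmem.1 hx
    refine hZmem.2 ⟨(l : F) * th m (l : F) * b, ?_⟩
    rw [map_mul, map_mul, map_inv, ht, hb, hS_conj_uS, mul_zero]
  let cj : Fˣ → Zt → Zt := fun l z => ⟨t l * z * (t l)⁻¹, hconjZ l z z.2⟩
  let ν : Zt → Zt := fun z => ∏ l : Fˣ, cj l z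
  have hν : ∀ x y : Zt, ν (x * y) = ν x * ν y := by
    intro x y
    show ∏ l : Fˣ, cj l (x * y) = (∏ l : Fˣ, cj l x) * ∏ l : Fˣ, cj l y
    rw [← Finset.prod_mul_distrib]
    refine Finset.prod_congr rfl ?_
    intro l _
    apply Subtype.ext
    show t l * ((x : Γ) * y) * (t l)⁻¹ = (t l * x * (t l)⁻¹) * (t l * y * (t l)⁻¹)
    group
  let νh : Zt →* Zt := MonoidHom.mk' ν hν
  have hKmem : ∀ a b : F, KK hc σ hσ a b ∈ Zt := fun a b => hZmem.2 ⟨_, KK_map hc σ hσ a b⟩
  let K : F → F → Zt := fun a b => ⟨KK hc σ hσ a b, hKmem a b⟩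
  have hK := norm_form_eq_one hq K
    (fun a a' b => Subtype.ext (KK_add_left hc σ hσ hC hm a a' b))
    (fun a b b' => Subtype.ext (KK_add_right hc σ hσ hC hm a b b'))
  have hνK : ∀ a b : F, νh (K a b) = 1 := by
    intro a b
    show ∏ l : Fˣ, cj l (K a b) = 1
    rw [← hK a b]
    refine Finset.prod_congr rfl ?_
    intro l _
    apply Subtype.ext
    exact KK_conj hc σ hσ hC hm l a b
  set Pt : Subgroup Γ := (Usub hc).comap σ with hPt
  have hle : (commutator Pt).map Pt.subtype ≤ νh.ker.map Zt.subtype := by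
    rw [Subgroup.map_le_iff_le_comap, commutator_def, Subgroup.commutator_le]
    rintro ⟨x, hx⟩ - ⟨y, hy⟩ -
    obtain ⟨a, b, hab⟩ := hx
    obtain ⟨a', b', hab'⟩ := hy
    have e := comm_eq_KK hc σ hσ hC hm hab hab'
    refine ⟨K a a', hνK a a', ?_⟩
    show KK hc σ hσ a a' = ⁅x, y⁆
    exact e.symm
  have hcenter : c ∈ Subgroup.center Γ := hC hck
  haveI : Pt.FiniteIndex := inferInstance
  have hpow := Cfsg.Agent.Lib.Schur.Stem.pow_index_mem_commutator Pt hcenter hcc
  obtain ⟨w, hw, hwc⟩ := hle hpow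
  have hw1 : ν w = 1 := hw
  have hwcen : (w : Γ) ∈ Subgroup.center Γ := by
    have : (w : Γ) = c ^ Pt.index := hwc
    rw [this]
    exact pow_mem hcenter _
  have hcjw : ∀ l : Fˣ, cj l w = w := by
    intro l
    apply Subtype.ext
    show t l * (w : Γ) * (t l)⁻¹ = w
    rw [Subgroup.mem_center_iff.1 hwcen (t l), mul_assoc, mul_inv_cancel, mul_one]
  have hw2 : ν w = w ^ Fintype.card Fˣ := by
    show ∏ l : Fˣ, cj l w = _
    rw [Finset.prod_congr rfl (fun l _ => hcjw l), Finset.prod_const, Finset.card_univ]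
  rw [hw2] at hw1
  have hw3 := congrArg Subtype.val hw1
  have hw4 : (w : Γ) ^ Fintype.card Fˣ = 1 := hw3
  have : (w : Γ) = c ^ Pt.index := hwc
  rw [← this]
  exact hw4

/-- The index of the Sylow 2-subgroup is odd. -/
lemma odd_index_Usub : Odd (Usub hc).index := by
  have hm := hc.hm
  have h1 := Subgroup.card_mul_index (Usub hc)
  rw [card_Usub hc, card_Sz hc] at h1
  have hpos : 0 < (2 ^ (2 * m + 1)) ^ 2 := by positivity
  have e : (Usub hc).index = ((2 ^ (2 * m + 1)) ^ 2 + 1) * (2 ^ (2 * m + 1) - 1) := by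
    apply Nat.eq_of_mul_eq_mul_left hpos
    rw [h1]
    ring
  rw [e]
  apply Odd.mul
  · exact Even.add_one ((Even.pow_of_ne_zero (Nat.even_pow.2 ⟨even_two, by omega⟩) (by norm_num)))
  · have h2 : Even (2 ^ (2 * m + 1)) := Nat.even_pow.2 ⟨even_two, by omega⟩
    have h3 : 0 < 2 ^ (2 * m + 1) := by positivity
    obtain ⟨r, hr⟩ := h2
    exact ⟨r - 1, by omega⟩

include hc in
lemma odd_card_units : Odd (Nat.card Fˣ) := by
  classical
  have hm := hc.hm
  rw [Nat.card_eq_fintype_card, Fintype.card_units, hc.hcard]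
  have h2 : Even (2 ^ (2 * m + 1)) := Nat.even_pow.2 ⟨even_two, by omega⟩
  have h3 : 0 < 2 ^ (2 * m + 1) := by positivity
  obtain ⟨r, hr⟩ := h2
  exact ⟨r - 1, by omega⟩

include hc in
/-- Stem extensions of the Suzuki groups `Sz(q)`, `q ≥ 32`, are trivial. -/
theorem ker_eq_bot [Finite Γ] (hm : 2 ≤ m) (hs : IsStemExtension σ) : σ.ker = ⊥ := by
  classical
  obtain ⟨hσ, hC, hcomm⟩ := hs
  by_contra hne
  haveI : Nontrivial σ.ker := (Subgroup.nontrivial_iff_ne_bot _).2 hne
  obtain ⟨p, hp, hdvd⟩ := Nat.exists_prime_and_dvd (Finite.one_lt_card (α := σ.ker)).ne'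
  haveI : Fact p.Prime := ⟨hp⟩
  obtain ⟨⟨c, hck⟩, hcp⟩ := exists_prime_orderOf_dvd_card' (G := σ.ker) p hdvd
  have hcp' : orderOf c = p := by
    rw [← hcp]
    exact (Subgroup.orderOf_mk c hck).symm
  -- `p` is odd
  have h1 := pow_eq_one_of_mem_ker hc σ hσ hC hm hck (hcomm hck)
  rw [← pow_mul] at h1
  have hdvd2 := orderOf_dvd_of_pow_eq_one h1
  rw [hcp'] at hdvd2
  have hodd : Odd (((Usub hc).comap σ).index * Nat.card Fˣ) := by
    rw [Subgroup.index_comap_of_surjective _ hσ]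
    exact (odd_index_Usub hc).mul (odd_card_units hc)
  have hpodd : Odd p := Odd.of_dvd_nat hodd hdvd2
  -- abelian Sylow subgroup
  have hgc : IsPGroup p (Subgroup.zpowers c) := by
    intro g
    obtain ⟨⟨k, hk⟩⟩ := (inferInstance : Nonempty (Fin 1)) |>.map (fun _ => g.2)
    refine ⟨1, ?_⟩
    apply Subtype.ext
    show ((g : Γ)) ^ p ^ 1 = 1
    rw [← hk, pow_one, ← zpow_natCast, zpow_comm, zpow_natCast, ← hcp', pow_orderOf_eq_one, one_zpow]
  obtain ⟨S, hS⟩ := hgc.exists_le_sylow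
  have hcS : c ∈ (S : Subgroup Γ) := hS (Subgroup.mem_zpowers c)
  have hcyc : IsCyclic (S.map σ) := by
    by_cases hB : (S : Subgroup Γ).map σ = ⊥
    · rw [hB]
      infer_instance
    · obtain ⟨⟨x, hx⟩, hx1⟩ := Subgroup.ne_bot_iff_exists_ne_one.1 hB
      have hx1' : x ≠ 1 := fun h => hx1 (Subtype.ext h)
      have hpg : IsPGroup p ((S : Subgroup Γ).map σ) := S.isPGroup'.map σ
      have hoddB : Odd (Nat.card ((S : Subgroup Γ).map σ)) := by
        obtain ⟨k, hk⟩ := IsPGroup.iff_card.1 hpg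
        rw [hk]
        exact hpodd.pow
      have hle := odd_le_Cz hc hoddB hx hx1'
      have hord : Odd (orderOf x) := Odd.of_dvd_nat hoddB (Subgroup.orderOf_dvd_natCard _ hx)
      haveI := (good_of_odd hc hx1' hord).cyc
      exact isCyclic_of_injective (Subgroup.inclusion hle) (Subgroup.inclusion_injective hle)
  have hcommS : ∀ a b : (S : Subgroup Γ), a * b = b * a := by
    refine commutative_of_cyclic_center_quotient (σ.subgroupMap (S : Subgroup Γ)) ?_
    intro x hx
    rw [Subgroup.mem_center_iff]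
    intro g
    apply Subtype.ext
    have hx' : (x : Γ) ∈ σ.ker := by
      rw [MonoidHom.mem_ker]
      exact congrArg Subtype.val hx
    exact Subgroup.mem_center_iff.1 (hC hx') g
  have hcS' : commutator (S : Subgroup Γ) = ⊥ := by
    rw [commutator_def, Subgroup.commutator_eq_bot_iff_le_centralizer]
    intro x _ 
    rw [Subgroup.mem_centralizer_iff]
    intro y _
    exact hcommS y x
  have hpow := Cfsg.Agent.Lib.Schur.Stem.pow_index_mem_commutator (S : Subgroup Γ) (hC hck) (hcomm hck)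
  rw [hcS', Subgroup.map_bot, Subgroup.mem_bot] at hpow
  have hdvd3 := orderOf_dvd_of_pow_eq_one hpow
  rw [hcp'] at hdvd3
  exact S.not_dvd_index hdvd3

end Main

end Cfsg.Agent.Lib.SzIso.SchurSz
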