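import Cfsg.Agent.Lib.SzIso.Basic
import Cfsg.Agent.Lib.Suzuki.Count

/-!
The doubly transitive action of `Lie.Sz` on the cosets of the normaliser of a Sylow 2-subgroup.
-/

set_option autoImplicit false

namespace Cfsg.Agent.Lib.SzIso.Action

open Cfsg Cfsg.Lie Cfsg.Agent.Lib.Suzuki.Core Cfsg.Agent.Lib.Suzuki.Elements
  Cfsg.Agent.Lib.Suzuki.Stab Cfsg.Agent.Lib.Suzuki.Group Cfsg.Agent.Lib.Suzuki.Simple
  Cfsg.Agent.Lib.Suzuki.Sylow2 Cfsg.Agent.Lib.Suzuki.Count Cfsg.Agent.Lib.SzIso.Basic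
open scoped Matrix Pointwise

/-- Abstract form: a doubly transitive action with point stabiliser the normaliser of a Sylow
`2`-subgroup which is regular off the base point gives the action on the cosets. -/
theorem transfer_abstract {G X : Type*} [Group G] [Finite G] [MulAction G X] [Fact (Nat.Prime 2)]
    (x0 : X) (U : Subgroup G) (a b : ℕ)
    (hpg : IsPGroup 2 U) (hidx : ¬ 2 ∣ U.index)
    (hN : ∀ g : G, g ∈ Subgroup.normalizer (U : Set G) ↔ g • x0 = x0)
    (h2 : ∀ p q r s : X, p ≠ q → r ≠ s → ∃ g : G, g • p = r ∧ g • q = s)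
    (hreg : ∀ x y : X, x ≠ x0 → y ≠ x0 → ∃! s : U, (s : G) • x = y)
    (hcardN : Nat.card (Subgroup.normalizer (U : Set G)) = a)
    (hidxN : (Subgroup.normalizer (U : Set G)).index = b) :
    ∃ S : Sylow 2 G, Nat.card (Subgroup.normalizer ((S : Subgroup G) : Set G)) = a ∧
      (Subgroup.normalizer ((S : Subgroup G) : Set G)).index = b ∧
      MulAction.IsMultiplyPretransitive G (G ⧸ Subgroup.normalizer ((S : Subgroup G) : Set G)) 2 ∧
      ∀ x y : G ⧸ Subgroup.normalizer ((S : Subgroup G) : Set G),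
        x ≠ (QuotientGroup.mk 1) → y ≠ (QuotientGroup.mk 1) →
          ∃! s : ↥(S : Subgroup G), (s : G) • x = y := by
  have hS : ((hpg.toSylow hidx : Sylow 2 G) : Subgroup G) = U := IsPGroup.toSylow_coe _ _
  refine ⟨hpg.toSylow hidx, ?_⟩
  rw [hS]
  refine ⟨hcardN, hidxN, ?_, ?_⟩
  all_goals
    have hmk : ∀ g h : G, (QuotientGroup.mk g : G ⧸ Subgroup.normalizer (U : Set G)) = QuotientGroup.mk h ↔
        g • x0 = h • x0 := by
      intro g h
      rw [QuotientGroup.eq, hN, mul_smul, inv_smul_eq_iff]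
      exact ⟨fun e => e.symm, fun e => e.symm⟩
    have hsm : ∀ g h : G, g • (QuotientGroup.mk h : G ⧸ Subgroup.normalizer (U : Set G)) =
        QuotientGroup.mk (g * h) := fun _ _ => rfl
  · rw [MulAction.is_two_pretransitive_iff]
    intro p q r s hpq hrs
    obtain ⟨g1, rfl⟩ := QuotientGroup.mk_surjective p
    obtain ⟨g2, rfl⟩ := QuotientGroup.mk_surjective q
    obtain ⟨g3, rfl⟩ := QuotientGroup.mk_surjective r
    obtain ⟨g4, rfl⟩ := QuotientGroup.mk_surjective s
    rw [Ne, hmk] at hpq hrs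
    obtain ⟨g, h1, h3⟩ := h2 _ _ _ _ hpq hrs
    refine ⟨g, ?_, ?_⟩
    · rw [hsm, hmk, mul_smul, h1]
    · rw [hsm, hmk, mul_smul, h3]
  · intro x y hx hy
    obtain ⟨g1, rfl⟩ := QuotientGroup.mk_surjective x
    obtain ⟨g2, rfl⟩ := QuotientGroup.mk_surjective y
    rw [Ne, hmk, one_smul] at hx hy
    obtain ⟨s, hs, huniq⟩ := hreg _ _ hx hy
    refine ⟨s, ?_, ?_⟩
    · show (s : G) • (QuotientGroup.mk g1 : G ⧸ Subgroup.normalizer (U : Set G)) = _
      rw [hsm, hmk, mul_smul]
      exact hs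
    · intro s' hs'
      apply huniq
      have hs'' : (s' : G) • (QuotientGroup.mk g1 : G ⧸ Subgroup.normalizer (U : Set G)) = _ := hs'
      rw [hsm, hmk, mul_smul] at hs''
      exact hs''

variable {F : Type*} [Field F] [Fintype F] [CharP F 2] {m : ℕ} (hc : Ctx F m)

include hc in
lemma reg_Usub (x y : OO F m) (hx : x ≠ infO) (hy : y ≠ infO) :
    ∃! s : Usub hc, (s : Sz F m) • x = y := by
  obtain h | ⟨x1, y1, rfl⟩ := OO_cases x
  · exact absurd h hx
  obtain h | ⟨x2, y2, rfl⟩ := OO_cases y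
  · exact absurd h hy
  have hpt : ∀ a b : F, (uS hc a b : Sz F m) • (ptO x1 y1 : OO F m) = ptO x2 y2 ↔
      x1 + a = x2 ∧ y1 + b + th m a * x1 = y2 := by
    intro a b
    rw [Subtype.ext_iff]
    show uS hc a b • pt m x1 y1 = pt m x2 y2 ↔ _
    rw [uS_smul_pt, pt_eq_pt_iff]
  have h2 : ∀ z : F, z + z = 0 := fun z => CharTwo.add_self_eq_zero z
  refine ⟨⟨uS hc (x1 + x2) (y1 + y2 + th m (x1 + x2) * x1), uS_mem hc _ _⟩, ?_, ?_⟩
  · show uS hc _ _ • _ = _
    rw [hpt]
    constructor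
    · rw [← add_assoc, h2, zero_add]
    · have : y1 + (y1 + y2 + th m (x1 + x2) * x1) + th m (x1 + x2) * x1 =
        (y1 + y1) + y2 + (th m (x1 + x2) * x1 + th m (x1 + x2) * x1) := by ring
      rw [this, h2, h2, zero_add, add_zero]
  · rintro ⟨s, a, b, rfl⟩ hs
    have hs' : uS hc a b • (ptO x1 y1 : OO F m) = ptO x2 y2 := hs
    rw [hpt] at hs'
    obtain ⟨h3, h4⟩ := hs'
    have ha : a = x1 + x2 := by
      rw [← h3, ← add_assoc, h2, zero_add]
    subst ha
    have hb : b = y1 + y2 + th m (x1 + x2) * x1 := by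
      rw [← h4]
      have : y1 + (y1 + b + th m (x1 + x2) * x1) + th m (x1 + x2) * x1 =
        (y1 + y1) + b + (th m (x1 + x2) * x1 + th m (x1 + x2) * x1) := by ring
      rw [this, h2, h2, zero_add, add_zero]
    subst hb
    rfl

include hc in
lemma index_stab : (MulAction.stabilizer (Sz F m) (suzukiPointInfinity F)).index =
    (2 ^ (2 * m + 1)) ^ 2 + 1 := by
  have h1 := Subgroup.card_mul_index (MulAction.stabilizer (Sz F m) (suzukiPointInfinity F))
  rw [card_stab_inf hc, card_Sz hc] at h1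
  have hq : 0 < 2 ^ (2 * m + 1) - 1 := by
    have : 2 ≤ 2 ^ (2 * m + 1) := by
      calc 2 = 2 ^ 1 := rfl
        _ ≤ _ := Nat.pow_le_pow_right (by norm_num) (by omega)
    omega
  have : (2 ^ (2 * m + 1)) ^ 2 * (2 ^ (2 * m + 1) - 1) *
      (MulAction.stabilizer (Sz F m) (suzukiPointInfinity F)).index =
      (2 ^ (2 * m + 1)) ^ 2 * (2 ^ (2 * m + 1) - 1) * ((2 ^ (2 * m + 1)) ^ 2 + 1) := by
    rw [h1]; ring
  exact Nat.eq_of_mul_eq_mul_left (by positivity) this

include hc in
/-- The statement for the ovoid model, carried to any isomorphic copy. -/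
theorem main_of_equiv {G : Type*} [Group G] [Finite G] (e : Sz F m ≃* G) [Fact (Nat.Prime 2)] :
    ∃ S : Sylow 2 G, Nat.card (Subgroup.normalizer ((S : Subgroup G) : Set G)) =
        (2 ^ (2 * m + 1)) ^ 2 * (2 ^ (2 * m + 1) - 1) ∧
      (Subgroup.normalizer ((S : Subgroup G) : Set G)).index = (2 ^ (2 * m + 1)) ^ 2 + 1 ∧
      MulAction.IsMultiplyPretransitive G (G ⧸ Subgroup.normalizer ((S : Subgroup G) : Set G)) 2 ∧
      ∀ x y : G ⧸ Subgroup.normalizer ((S : Subgroup G) : Set G),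
        x ≠ (QuotientGroup.mk 1) → y ≠ (QuotientGroup.mk 1) →
          ∃! s : ↥(S : Subgroup G), (s : G) • x = y := by
  letI act : MulAction G (OO F m) := MulAction.compHom (OO F m) (e.symm : G ≃* Sz F m).toMonoidHom
  have hsm : ∀ (g : G) (p : OO F m), g • p = e.symm g • p := fun _ _ => rfl
  have hnorm : Subgroup.normalizer ((((Usub hc).map e.toMonoidHom : Subgroup G) : Set G)) =
      (Subgroup.normalizer ((Usub hc : Subgroup (Sz F m)) : Set (Sz F m))).map e.toMonoidHom :=
    (Subgroup.map_equiv_normalizer_eq (Usub hc) e).symm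
  refine transfer_abstract (X := OO F m) (infO : OO F m) ((Usub hc).map e.toMonoidHom) _ _ ?_ ?_ ?_ ?_
    ?_ ?_ ?_
  · exact (Usub_isPGroup hc).map e.toMonoidHom
  · have : ((Usub hc).map e.toMonoidHom).index = (Usub hc).index :=
      Subgroup.index_map_equiv _ e
    rw [this]
    exact not_two_dvd_index hc
  · intro g
    rw [hnorm, hsm]
    constructor
    · rintro ⟨g', hg', rfl⟩
      have : e.symm (e g') = g' := e.symm_apply_apply g'
      show e.symm (e g') • _ = _
      rw [this]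
      exact (mem_normalizer_U_iff hc).1 hg'
    · intro h
      refine ⟨e.symm g, (mem_normalizer_U_iff hc).2 h, e.apply_symm_apply g⟩
  · intro p q r s hpq hrs
    obtain ⟨g, h1, h2⟩ := (MulAction.is_two_pretransitive_iff (G := Sz F m) (α := OO F m)).1
      (two_trans hc) hpq hrs
    refine ⟨e g, ?_, ?_⟩
    · rw [hsm, e.symm_apply_apply, h1]
    · rw [hsm, e.symm_apply_apply, h2]
  · intro x y hx hy
    obtain ⟨s, hs, huniq⟩ := reg_Usub hc x y hx hy
    refine ⟨⟨e s, ⟨s, s.2, rfl⟩⟩, ?_, ?_⟩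
    · show (e (s : Sz F m) : G) • x = y
      rw [hsm, e.symm_apply_apply, hs]
    · rintro ⟨g, g', hg', rfl⟩ h
      have h' : (e g' : G) • x = y := h
      rw [hsm, e.symm_apply_apply] at h'
      have := huniq ⟨g', hg'⟩ h'
      subst this
      rfl
  · rw [hnorm]
    have : Nat.card ((Subgroup.normalizer ((Usub hc : Subgroup (Sz F m)) : Set (Sz F m))).map e.toMonoidHom) =
        Nat.card (Subgroup.normalizer ((Usub hc : Subgroup (Sz F m)) : Set (Sz F m))) :=
      Subgroup.card_map_of_injective e.injective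
    rw [this, normalizer_U_eq hc, card_stab_inf hc]
  · rw [hnorm]
    have : ((Subgroup.normalizer ((Usub hc : Subgroup (Sz F m)) : Set (Sz F m))).map e.toMonoidHom).index =
        (Subgroup.normalizer ((Usub hc : Subgroup (Sz F m)) : Set (Sz F m))).index :=
      Subgroup.index_map_equiv _ e
    rw [this, normalizer_U_eq hc, index_stab hc]

end Cfsg.Agent.Lib.SzIso.Action
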